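import Mathlib
import Cfsg.Agent.Lib.Helper51.TI3.Defs

/-!
# S3117, package (QS7) (helper13): a quadratic map on a group of order at most 16 with at most
two zeros has no automorphism of order 7.
-/

set_option autoImplicit false

universe u v

namespace Cfsg.Agent.Lib.Helper13.TI3

open Cfsg.Agent.Lib.Helper51.TI3

theorem exists_notMem_of_card_lt {α : Type*} [Fintype α] [DecidableEq α] (S : Finset α)
    (h : S.card < Fintype.card α) : ∃ x, x ∉ S := by
  by_contra hcon
  simp only [not_exists, not_not] at hcon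
  have h1 : S = Finset.univ := Finset.eq_univ_iff_forall.2 hcon
  rw [h1, Finset.card_univ] at h
  exact lt_irrefl _ h

theorem aut_pow_fix {W : Type*} [Group W] (h : MulAut W) (u : W) (hu : h u = u) (n : ℕ) :
    (h ^ n) u = u := by
  induction n with
  | zero => simp
  | succ n ih => rw [pow_succ', MulAut.mul_apply, ih, hu]

theorem lemNo7 (hO : LemOrbit.{u}) (hK : LemK.{u, v}) : LemNo7.{u, v} := by
  intro W T _ _ _ _ Q hW16 hzero g hg h7
  classical
  have hexp : ∀ w : W, w * w = 1 := Q.hW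
  have hinv : ∀ a : W, a⁻¹ = a := fun a => inv_eq_of_mul_eq_one_left (hexp a)
  obtain ⟨U, hUinv, hUfix, hUne, hUdvd⟩ := hO hexp g 7 (by norm_num) (by norm_num) h7
  have hg7 : g ^ 7 = 1 := by rw [← h7]; exact pow_orderOf_eq_one g
  -- invariance of `sq` and of `U` under powers of `g`
  have hsqpow : ∀ (n : ℕ) (w : W), Q.sq ((g ^ n) w) = Q.sq w := by
    intro n
    induction n with
    | zero => intro w; simp
    | succ n ih => intro w; rw [pow_succ', MulAut.mul_apply, hg, ih]
  have hUpow : ∀ (n : ℕ) (w : W), w ∈ U → (g ^ n) w ∈ U := by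
    intro n
    induction n with
    | zero => intro w hw; simpa using hw
    | succ n ih => intro w hw; rw [pow_succ', MulAut.mul_apply]; exact hUinv _ (ih w hw)
  -- `|U| = 8`
  have hP : IsPGroup 2 W := by
    intro w
    exact ⟨1, by rw [pow_one, pow_two]; exact hexp w⟩
  haveI : Fact (Nat.Prime 2) := ⟨Nat.prime_two⟩
  obtain ⟨n, hn⟩ := IsPGroup.iff_card.1 hP
  have hUW : Nat.card U ∣ 2 ^ n := hn ▸ Subgroup.card_subgroup_dvd_card U
  obtain ⟨m, hmn, hm⟩ := (Nat.dvd_prime_pow Nat.prime_two).1 hUW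
  have hU16 : Nat.card U ≤ 16 := le_trans (Subgroup.card_le_card_group U) hW16
  have hU8 : Nat.card U = 8 := by
    rw [hm] at hU16 hUdvd
    have hm4 : m ≤ 4 := by
      by_contra hcon
      have h5 : 5 ≤ m := by omega
      have : 2 ^ 5 ≤ 2 ^ m := Nat.pow_le_pow_right (by norm_num) h5
      omega
    have hm0 : m ≠ 0 := by
      rintro rfl
      exact hUne (Subgroup.eq_bot_of_card_eq U (by rw [hm]; rfl))
    rw [hm]
    interval_cases m <;> simp_all <;> omega
  haveI : Fintype ↥U := Fintype.ofFinite _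
  have hUcard : Fintype.card ↥U = 8 := by rw [← Nat.card_eq_fintype_card, hU8]
  -- an independent triple in `U`
  obtain ⟨u₁, hu₁⟩ := exists_notMem_of_card_lt ({1} : Finset ↥U) (by rw [hUcard]; simp)
  obtain ⟨u₂, hu₂⟩ := exists_notMem_of_card_lt ({1, u₁} : Finset ↥U)
    (by rw [hUcard]; exact lt_of_le_of_lt (Finset.card_insert_le _ _) (by simp))
  obtain ⟨u₃, hu₃⟩ := exists_notMem_of_card_lt ({1, u₁, u₂, u₁ * u₂} : Finset ↥U)
    (by
      rw [hUcard]
      refine lt_of_le_of_lt (Finset.card_insert_le _ _) ?_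
      refine lt_of_le_of_lt (Nat.succ_le_succ (Finset.card_insert_le _ _)) ?_
      refine lt_of_le_of_lt (Nat.succ_le_succ (Nat.succ_le_succ (Finset.card_insert_le _ _))) ?_
      simp)
  simp only [Finset.mem_insert, Finset.mem_singleton, not_or] at hu₁ hu₂ hu₃
  have hinvU : ∀ a : ↥U, a⁻¹ = a := fun a => Subtype.ext (by simpa using hinv (a : W))
  have h12 : u₁ * u₂ ≠ 1 := by
    intro h
    have : u₂ = u₁⁻¹ := eq_inv_of_mul_eq_one_right h
    rw [hinvU] at this
    exact hu₂.2 this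
  have h13 : u₁ * u₃ ≠ 1 := by
    intro h
    have : u₃ = u₁⁻¹ := eq_inv_of_mul_eq_one_right h
    rw [hinvU] at this
    exact hu₃.2.1 this
  have h23 : u₂ * u₃ ≠ 1 := by
    intro h
    have : u₃ = u₂⁻¹ := eq_inv_of_mul_eq_one_right h
    rw [hinvU] at this
    exact hu₃.2.2.1 this
  have h123 : u₁ * u₂ * u₃ ≠ 1 := by
    intro h
    have : u₃ = (u₁ * u₂)⁻¹ := eq_inv_of_mul_eq_one_right h
    rw [hinvU] at this
    exact hu₃.2.2.2 this
  -- `sq` is constant on `U ∖ {1}`
  have hconst : ∀ v : ↥U, v ≠ 1 → Q.sq (v : W) = Q.sq (u₁ : W) := by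
    let φ : Fin 7 → ↥U := fun i => ⟨(g ^ (i : ℕ)) (u₁ : W), hUpow _ _ u₁.2⟩
    have hφinj : Function.Injective φ := by
      have key : ∀ i j : ℕ, i < j → j < 7 → (g ^ i) (u₁ : W) = (g ^ j) (u₁ : W) → False := by
        intro i j hij hj h
        obtain ⟨k, rfl⟩ : ∃ k, j = i + k := ⟨j - i, by omega⟩
        rw [pow_add, MulAut.mul_apply] at h
        have h1 : (g ^ k) (u₁ : W) = u₁ := ((g ^ i).injective h).symm
        have h2 := aut_pow_fix (g ^ k) (u₁ : W) h1 (k ^ 5)
        have h3 : (g ^ k) ^ (k ^ 5) = g := by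
          rw [← pow_mul, ← pow_succ', ← pow_mod_orderOf, h7]
          have hk : 1 ≤ k ∧ k ≤ 6 := by omega
          obtain ⟨hk1, hk6⟩ := hk
          interval_cases k <;> simp
        rw [h3] at h2
        exact hu₁ (Subtype.ext (hUfix _ u₁.2 h2))
      intro i j hij
      have h : (g ^ (i : ℕ)) (u₁ : W) = (g ^ (j : ℕ)) (u₁ : W) := congrArg Subtype.val hij
      by_contra hne
      rcases lt_or_gt_of_ne (fun h' => hne (Fin.ext h')) with hlt | hlt
      · exact key i j hlt j.2 h
      · exact key j i hlt i.2 h.symm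
    have himg : Finset.univ.image φ = Finset.univ.erase (1 : ↥U) := by
      apply Finset.eq_of_subset_of_card_le
      · intro v hv
        obtain ⟨i, -, rfl⟩ := Finset.mem_image.1 hv
        rw [Finset.mem_erase]
        refine ⟨?_, Finset.mem_univ _⟩
        intro h1
        have h2 : (g ^ (i : ℕ)) (u₁ : W) = 1 := congrArg Subtype.val h1
        have h3 : (g ^ (i : ℕ)) (u₁ : W) = (g ^ (i : ℕ)) 1 := by rw [h2, map_one]
        exact hu₁ (Subtype.ext ((g ^ (i : ℕ)).injective h3))
      · rw [Finset.card_erase_of_mem (Finset.mem_univ _), Finset.card_univ, hUcard,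
          Finset.card_image_of_injective _ hφinj, Finset.card_univ, Fintype.card_fin]
    intro v hv
    have hv' : v ∈ Finset.univ.image φ := by
      rw [himg]; exact Finset.mem_erase.2 ⟨hv, Finset.mem_univ _⟩
    obtain ⟨i, -, rfl⟩ := Finset.mem_image.1 hv'
    exact hsqpow _ _
  by_cases hc : Q.sq (u₁ : W) = 1
  · -- three zeros
    have h2ne : u₂ ≠ 1 := hu₂.1
    have h3ne : u₃ ≠ 1 := hu₃.1
    let ψ : Fin 3 → {w : W // Q.sq w = 1} := fun i =>
      if i = 0 then ⟨(u₁ : W), hc⟩
      else if i = 1 then ⟨(u₂ : W), by rw [hconst u₂ h2ne, hc]⟩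
      else ⟨(u₃ : W), by rw [hconst u₃ h3ne, hc]⟩
    have hψ : Function.Injective ψ := by
      have h21 : (u₂ : W) ≠ u₁ := fun h => hu₂.2 (Subtype.ext h)
      have h31 : (u₃ : W) ≠ u₁ := fun h => hu₃.2.1 (Subtype.ext h)
      have h32 : (u₃ : W) ≠ u₂ := fun h => hu₃.2.2.1 (Subtype.ext h)
      have hψ0 : ((ψ 0 : {w : W // Q.sq w = 1}) : W) = u₁ := rfl
      have hψ1 : ((ψ 1 : {w : W // Q.sq w = 1}) : W) = u₂ := rfl
      have hψ2 : ((ψ 2 : {w : W // Q.sq w = 1}) : W) = u₃ := rfl
      intro i j hij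
      have hval : ((ψ i : {w : W // Q.sq w = 1}) : W) = ψ j := congrArg Subtype.val hij
      match i, j, hval with
      | 0, 0, _ => rfl
      | 1, 1, _ => rfl
      | 2, 2, _ => rfl
      | 0, 1, h => rw [hψ0, hψ1] at h; exact absurd h.symm h21
      | 1, 0, h => rw [hψ0, hψ1] at h; exact absurd h h21
      | 0, 2, h => rw [hψ0, hψ2] at h; exact absurd h.symm h31
      | 2, 0, h => rw [hψ0, hψ2] at h; exact absurd h h31
      | 1, 2, h => rw [hψ1, hψ2] at h; exact absurd h.symm h32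
      | 2, 1, h => rw [hψ1, hψ2] at h; exact absurd h h32
    have h3 := Nat.card_le_card_of_injective ψ hψ
    rw [Nat.card_eq_fintype_card, Fintype.card_fin] at h3
    omega
  · -- all seven products take the value `c ≠ 1`
    refine hK Q (u₁ : W) (u₂ : W) (u₃ : W) (Q.sq (u₁ : W)) (Q.sq (u₁ : W)) hc hc ?_
    intro x hx
    left
    rcases hx with rfl | rfl | rfl | rfl | rfl | rfl | rfl
    · rfl
    · exact hconst u₂ hu₂.1
    · exact hconst u₃ hu₃.1
    · exact hconst (u₁ * u₂) h12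
    · exact hconst (u₁ * u₃) h13
    · exact hconst (u₂ * u₃) h23
    · exact hconst (u₁ * u₂ * u₃) h123

end Cfsg.Agent.Lib.Helper13.TI3
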