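import Mathlib
import Cfsg.Agent.Lib.Helper51.TI3.Defs

/-!
# S3117, package (QR) (helper13): an automorphism of odd prime order of an elementary abelian
2-group has an invariant subgroup `U ≠ 1` on which it fixes only the identity, and `r ∣ |U| - 1`.
-/

set_option autoImplicit false

universe u

namespace Cfsg.Agent.Lib.Helper13.TI3

open Cfsg.Agent.Lib.Helper51.TI3

theorem lemOrbit : LemOrbit.{u} := by
  intro W _ _ hW g r hr hr2 hg
  classical
  have hcomm : ∀ a b : W, a * b = b * a := by
    intro a b
    have h1 := hW (a * b)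
    have h2 : a * b = a * (a * b * (a * b)) * b := by rw [h1, mul_one]
    have h3 : a * (a * b * (a * b)) * b = (a * a) * (b * a) * (b * b) := by group
    rw [h2, h3, hW a, hW b, one_mul, mul_one]
  have hinv : ∀ a : W, a⁻¹ = a := fun a => inv_eq_of_mul_eq_one_left (hW a)
  -- the homomorphism `δ w = g w * w`
  let δ : W →* W :=
    { toFun := fun w => g w * w
      map_one' := by simp
      map_mul' := fun a b => by
        show g (a * b) * (a * b) = g a * a * (g b * b)
        rw [map_mul, mul_assoc, mul_assoc, ← mul_assoc (g b) a b, hcomm (g b) a, mul_assoc] }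
  have hδ : ∀ w, δ w = g w * w := fun w => rfl
  have hgδ : ∀ w, g (δ w) = δ (g w) := by
    intro w
    rw [hδ, hδ, map_mul]
  have hgpow : g ^ r = 1 := by rw [← hg]; exact pow_orderOf_eq_one g
  have hUinv : ∀ u ∈ δ.range, g u ∈ δ.range := by
    rintro u ⟨w, rfl⟩
    exact ⟨g w, (hgδ w).symm⟩
  have hfix : ∀ u ∈ δ.range, g u = u → u = 1 := by
    rintro v ⟨w, rfl⟩ hv
    have hgw : g w = δ w * w := by
      rw [hδ, mul_assoc, hW, mul_one]
    have key : ∀ k : ℕ, (g ^ k) w = w * δ w ^ k := by
      intro k
      induction k with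
      | zero => simp
      | succ k ih =>
        rw [pow_succ', MulAut.mul_apply, ih, map_mul, map_pow, hv, hgw, pow_succ,
          hcomm (δ w) w, mul_assoc, hcomm (δ w) (δ w ^ k)]
    have h1 := key r
    rw [hgpow, MulAut.one_apply] at h1
    have h2 : δ w ^ r = 1 := by
      have : w * 1 = w * δ w ^ r := by rw [mul_one]; exact h1
      exact (mul_left_cancel this).symm
    have h3 : δ w ^ 2 = 1 := by rw [pow_two]; exact hW _
    have hodd : Odd r := hr.odd_of_ne_two hr2
    obtain ⟨m, hm⟩ := hodd
    rw [hm, pow_succ, pow_mul, h3, one_pow, one_mul] at h2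
    exact h2
  have hne : δ.range ≠ ⊥ := by
    intro hbot
    have h1 : g = 1 := by
      ext w
      have h2 : δ w ∈ δ.range := ⟨w, rfl⟩
      rw [hbot, Subgroup.mem_bot, hδ] at h2
      have h3 : g w = w⁻¹ := eq_inv_of_mul_eq_one_left h2
      rw [h3, hinv]; rfl
    rw [h1, orderOf_one] at hg
    exact hr.one_lt.ne' hg.symm
  refine ⟨δ.range, hUinv, hfix, hne, ?_⟩
  -- counting: `g` restricted to `U` is an `r`-th root of the identity with one fixed point
  haveI : Fact r.Prime := ⟨hr⟩
  haveI : Fintype ↥δ.range := Fintype.ofFinite _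
  let f : Function.End ↥δ.range := fun u => ⟨g u, hUinv u u.2⟩
  have hfpow : ∀ (k : ℕ) (u : ↥δ.range), (((f ^ k) u : ↥δ.range) : W) = (g ^ k) u := by
    intro k
    induction k with
    | zero => intro u; rfl
    | succ k ih =>
      intro u
      rw [pow_succ', pow_succ']
      show g (((f ^ k) u : ↥δ.range) : W) = g ((g ^ k) u)
      rw [ih]
  have hf : f ^ r ^ 1 = 1 := by
    rw [pow_one]
    funext u
    apply Subtype.ext
    rw [hfpow, hgpow]
    rfl
  have hmod := Equiv.Perm.card_fixedPoints_modEq (f := f) hf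
  have hfp : Function.fixedPoints f = {1} := by
    ext u
    constructor
    · intro hu
      have h1 : ((f u : ↥δ.range) : W) = u := congrArg Subtype.val hu
      have h2 : g (u : W) = u := h1
      exact Subtype.ext (hfix u u.2 h2)
    · intro hu
      rw [Set.mem_singleton_iff] at hu
      rw [hu]
      show f 1 = 1
      apply Subtype.ext
      show g ((1 : ↥δ.range) : W) = ((1 : ↥δ.range) : W)
      simp
  have hcard1 : Fintype.card ↥(Function.fixedPoints f) = 1 := by
    rw [← Nat.card_eq_fintype_card, hfp]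
    simp
  rw [hcard1, ← Nat.card_eq_fintype_card] at hmod
  have hpos : 1 ≤ Nat.card ↥δ.range := Nat.one_le_iff_ne_zero.2 Nat.card_pos.ne'
  exact (Nat.modEq_iff_dvd' hpos).1 hmod.symm

end Cfsg.Agent.Lib.Helper13.TI3
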